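import Mathlib
import Cfsg.Agent.Lib.Helper14.Omega6Plus

/-! `SU₄(q) → Ω₆⁻(q)`: definitions (S0303). -/

set_option autoImplicit false

namespace Cfsg.Agent.Lib.Helper60.O6M

open Cfsg.Agent.Lib.Helper14 Cfsg.Agent.Lib.Helper44 Matrix QuadraticAlgebra

variable {R : Type*} [CommRing R]

/-- the Hodge dual of a `4 × 4` matrix (used for alternating matrices) -/
def hs (M : Matrix (Fin 4) (Fin 4) R) : Matrix (Fin 4) (Fin 4) R :=
  !![0, M 2 3, -M 1 3, M 1 2;
     -M 2 3, 0, M 0 3, -M 0 2;
     M 1 3, -M 0 3, 0, M 0 1;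
     -M 1 2, M 0 2, -M 0 1, 0]

variable {F : Type*} [Field F] (a b : F)

/-- the alternating matrix with first row `0 u v w` fixed by `M ↦ star (hs M)` -/
def mk (u v w : QuadraticAlgebra F (-b) a) : Matrix (Fin 4) (Fin 4) (QuadraticAlgebra F (-b) a) :=
  !![0, u, v, w;
     -u, 0, star w, -star v;
     -v, -star w, 0, star u;
     -w, star v, -star u, 0]

/-- the real form of the space of alternating matrices -/
def InV (M : Matrix (Fin 4) (Fin 4) (QuadraticAlgebra F (-b) a)) : Prop :=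
  ∃ u v w, M = mk a b u v w

end Cfsg.Agent.Lib.Helper60.O6M
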