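import Mathlib
import Cfsg.Agent.Lib.Helper60.O6M.Defs
import Cfsg.Agent.S0278

/-! farm O6M (helper60), piece C. -/

set_option autoImplicit false

namespace Cfsg.Agent.Lib.Helper60.O6M

theorem card_SU4 {K : Type*} [Field K] [Fintype K] {q : ℕ} (hK : Fintype.card K = q ^ 2) :
    Nat.card (Cfsg.SU 4 K q) = q ^ 6 * (q ^ 2 - 1) * (q ^ 3 + 1) * (q ^ 4 - 1) := by
  have h := Cfsg.Agent.S0278.result hK 4 (by norm_num)
  have e0 : Even 0 := by decide
  have e1 : ¬ Even 1 := by decide
  have e2 : Even 2 := by decide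
  have e3 : ¬ Even 3 := by decide
  simp only [Finset.prod_range_succ, Finset.prod_range_zero, if_pos e0, if_neg e1, if_pos e2,
    if_neg e3] at h
  norm_num at h
  apply Nat.eq_of_mul_eq_mul_left (Nat.succ_pos q)
  rw [Nat.succ_eq_add_one, h]
  ring

end Cfsg.Agent.Lib.Helper60.O6M
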