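import Mathlib
import Cfsg.Agent.Lib.Helper60.O6M.Defs

/-! farm O6M (helper60), piece FR. -/

set_option autoImplicit false

namespace Cfsg.Agent.Lib.Helper60.O6M

open Matrix QuadraticAlgebra

variable {F : Type*} [Field F] (a b : F)

local notation "E" => QuadraticAlgebra F (-b) a

variable [hfact : Fact (∀ r : F, r ^ 2 ≠ -b + a * r)]
include hfact

theorem FR_add_pow [Fintype F] (x y : E) :
    (x + y) ^ Fintype.card F = x ^ Fintype.card F + y ^ Fintype.card F := by
  obtain ⟨p, hp⟩ := CharP.exists F
  obtain ⟨n, hpp, hn⟩ := FiniteField.card F p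
  have : Fact p.Prime := ⟨hpp⟩
  have : CharP E p := charP_of_injective_algebraMap (algebraMap F E).injective p
  rw [hn]
  exact add_pow_char_pow x y p n

theorem FR_algebraMap_pow [Fintype F] (c : F) :
    (algebraMap F E c) ^ Fintype.card F = algebraMap F E c := by
  rw [← map_pow, FiniteField.pow_card]

theorem FR_omega_ne [Fintype F] : (ω : E) ^ Fintype.card F ≠ ω := by
  classical
  intro h
  have hq : 1 < Fintype.card F := Fintype.one_lt_card
  have hne : (Polynomial.X ^ Fintype.card F - Polynomial.X : Polynomial E) ≠ 0 :=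
    FiniteField.X_pow_card_sub_X_ne_zero E hq
  have hnot : (ω : E) ∉ Finset.univ.image (algebraMap F E) := by
    intro hmem
    obtain ⟨c, -, hc⟩ := Finset.mem_image.1 hmem
    have := congrArg QuadraticAlgebra.im hc
    simp at this
  have hsub : (insert (ω : E) (Finset.univ.image (algebraMap F E))).val ⊆
      (Polynomial.X ^ Fintype.card F - Polynomial.X : Polynomial E).roots := by
    intro x hx
    rw [Finset.mem_val, Finset.mem_insert] at hx
    rw [Polynomial.mem_roots hne, Polynomial.IsRoot.def]
    simp only [Polynomial.eval_sub, Polynomial.eval_pow, Polynomial.eval_X]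
    rcases hx with rfl | hx
    · rw [h, sub_self]
    · obtain ⟨c, -, rfl⟩ := Finset.mem_image.1 hx
      rw [FR_algebraMap_pow, sub_self]
  have h1 := Polynomial.card_le_degree_of_subset_roots hsub
  rw [FiniteField.X_pow_card_sub_X_natDegree_eq E hq, Finset.card_insert_of_notMem hnot,
    Finset.card_image_of_injective _ (algebraMap F E).injective, Finset.card_univ] at h1
  omega

theorem FR_omega [Fintype F] : (ω : E) ^ Fintype.card F = star (ω : E) := by
  obtain ⟨y, hy⟩ : ∃ y : E, y = (ω : E) ^ Fintype.card F := ⟨_, rfl⟩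
  rw [← hy]
  have h1 : y * y = algebraMap F E (-b) + algebraMap F E a * y := by
    rw [hy, ← mul_pow, omega_mul_omega_eq_algebraMap, FR_add_pow, mul_pow, FR_algebraMap_pow,
      FR_algebraMap_pow]
  have h2 : (ω : E) + star (ω : E) = algebraMap F E a := by
    ext <;> simp
  have h3 : (ω : E) * star (ω : E) = algebraMap F E b := by
    ext <;> simp
  have h4 : (y - ω) * (y - star (ω : E)) = 0 := by
    have : (y - ω) * (y - star (ω : E)) = y * y - ((ω : E) + star (ω : E)) * y + (ω : E) * star (ω : E) := by
      ring
    rw [this, h1, h2, h3, map_neg]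
    ring
  rcases mul_eq_zero.1 h4 with h5 | h5
  · exfalso
    apply FR_omega_ne a b
    rw [← hy]
    exact sub_eq_zero.1 h5
  · exact sub_eq_zero.1 h5

theorem frob_eq_star [Fintype F] (x : E) :
    x ^ Fintype.card F = star x := by
  have hx : x = algebraMap F E x.re + algebraMap F E x.im * ω := by
    ext <;> simp
  have hs : ∀ c : F, star (algebraMap F E c) = algebraMap F E c := by
    intro c
    ext <;> simp
  conv_lhs => rw [hx]
  conv_rhs => rw [hx]
  rw [FR_add_pow, mul_pow, FR_algebraMap_pow, FR_algebraMap_pow, FR_omega, star_add, star_mul', hs, hs]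

end Cfsg.Agent.Lib.Helper60.O6M
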