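import Mathlib
import Cfsg.Agent.Lib.Helper60.O6M.Defs

/-! farm O6M (helper60), piece H1. -/

set_option autoImplicit false

namespace Cfsg.Agent.Lib.Helper60.O6M

open Cfsg.Agent.Lib.Helper14 Cfsg.Agent.Lib.Helper44 Matrix QuadraticAlgebra

set_option maxHeartbeats 4000000 in
theorem hs_cong {K : Type*} [Field K] (g : Matrix (Fin 4) (Fin 4) K) (v : Fin 3 ⊕ Fin 3 → K) :
    gᵀ * hs (g * e6 v * gᵀ) * g = g.det • hs (e6 v) := by
  rw [e6_apply]
  ext i j
  fin_cases i <;> fin_cases j <;>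
  · simp only [hs, Matrix.det_succ_row_zero, Matrix.mul_apply, Fin.sum_univ_succ, Matrix.transpose_apply,
      Matrix.smul_apply]
    simp [Fin.succAbove, Matrix.submatrix_apply]
    ring

end Cfsg.Agent.Lib.Helper60.O6M
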