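import Mathlib
import Cfsg.Agent.Lib.Helper60.O6M.Defs

set_option autoImplicit false

namespace Cfsg.Agent.Lib.Helper60.O6M

open Cfsg.Agent.Lib.Helper14 Cfsg.Agent.Lib.Helper44 Matrix QuadraticAlgebra

variable {F : Type*} [Field F] (a b : F)

local notation "E" => QuadraticAlgebra F (-b) a
local notation "W" => Matrix (Fin 4) (Fin 4) (QuadraticAlgebra F (-b) a)

variable [hfact : Fact (∀ r : F, r ^ 2 ≠ -b + a * r)]
include hfact

/-- [H2a] -/
theorem mk_eq_e6 (u v w : E) : ∃ x : Fin 3 ⊕ Fin 3 → E, mk a b u v w = e6 x :=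
  ⟨Sum.elim ![u, v, w] ![star u, star v, star w], rfl⟩

/-- [H2b] -/
theorem hs_mk (u v w : E) : hs (mk a b u v w) = (mk a b u v w).map star := by
  apply Matrix.ext
  intro i j
  fin_cases i <;> fin_cases j <;> simp [hs, mk]

/-- [H2c] -/
theorem inV_of_hs (x : Fin 3 ⊕ Fin 3 → E) (h : hs (e6 x) = (e6 x).map star) : InV a b (e6 x) := by
  refine ⟨x (.inl 0), x (.inl 1), x (.inl 2), ?_⟩
  have h01 : x (.inr 0) = star (x (.inl 0)) := congrFun (congrFun h 0) 1
  have h02 : - -x (.inr 1) = star (x (.inl 1)) := congrFun (congrFun h 0) 2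
  have h03 : x (.inr 2) = star (x (.inl 2)) := congrFun (congrFun h 0) 3
  rw [neg_neg] at h02
  rw [e6_apply, mk, h01, h02, h03]

end Cfsg.Agent.Lib.Helper60.O6M
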