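import Mathlib
import Cfsg.Agent.Lib.Helper60.O6M.Defs
import Cfsg.Agent.Lib.Helper60.O6M.H1
import Cfsg.Agent.Lib.Helper60.O6M.H2

set_option autoImplicit false

namespace Cfsg.Agent.Lib.Helper60.O6M

open Cfsg.Agent.Lib.Helper14 Cfsg.Agent.Lib.Helper44 Matrix QuadraticAlgebra

variable {F : Type*} [Field F] (a b : F)

local notation "E" => QuadraticAlgebra F (-b) a
local notation "W" => Matrix (Fin 4) (Fin 4) (QuadraticAlgebra F (-b) a)

variable [hfact : Fact (∀ r : F, r ^ 2 ≠ -b + a * r)]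
include hfact

/-- [H3] -/
theorem inV_cong (g : W) (hdet : g.det = 1) (hu : gᵀ * g.map star = 1) (M : W) (hM : InV a b M) :
    InV a b (g * M * gᵀ) := by
  obtain ⟨u, v, w, rfl⟩ := hM
  obtain ⟨x, hx⟩ := mk_eq_e6 a b u v w
  obtain ⟨x', hx'⟩ := e6_cong_range g x
  have h1 : g.map star * gᵀ = 1 := mul_eq_one_comm.mp hu
  have h2 : (g.map star)ᵀ * g = 1 := by
    have := congrArg Matrix.transpose hu
    rwa [Matrix.transpose_mul, Matrix.transpose_transpose, Matrix.transpose_one] at this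
  have h3 : g * (g.map star)ᵀ = 1 := mul_eq_one_comm.mp h2
  rw [hx, ← hx']
  apply inV_of_hs
  have h4 : hs (e6 x') = g.map star * (gᵀ * hs (e6 x') * g) * (g.map star)ᵀ := by
    calc hs (e6 x') = (g.map star * gᵀ) * hs (e6 x') * (g * (g.map star)ᵀ) := by
          rw [h1, h3, one_mul, mul_one]
      _ = g.map star * (gᵀ * hs (e6 x') * g) * (g.map star)ᵀ := by simp only [mul_assoc]
  rw [h4, hx', hs_cong, hdet, one_smul, ← hx, hs_mk]
  have h5 : ∀ A B : W, (A * B).map star = A.map star * B.map star := by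
    intro A B
    exact Matrix.map_mul (f := starRingEnd E)
  rw [h5, h5, Matrix.transpose_map]

end Cfsg.Agent.Lib.Helper60.O6M
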