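import Mathlib
import Cfsg.Agent.Lib.Helper60.O6M.Defs

set_option autoImplicit false

namespace Cfsg.Agent.Lib.Helper60.O6M

open Cfsg.Agent.Lib.Helper14 Cfsg.Agent.Lib.Helper44 Matrix QuadraticAlgebra

variable {F : Type*} [Field F] (a b : F)

local notation "E" => QuadraticAlgebra F (-b) a
local notation "W" => Matrix (Fin 4) (Fin 4) (QuadraticAlgebra F (-b) a)

variable [hfact : Fact (∀ r : F, r ^ 2 ≠ -b + a * r)]
include hfact

theorem K_delta_ne (hD : a ^ 2 - 4 * b ≠ 0) : (ω : E) - star (ω : E) ≠ 0 := by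
  intro h
  have hre := congrArg QuadraticAlgebra.re h
  have him := congrArg QuadraticAlgebra.im h
  simp at hre him
  apply hD
  have h2 : (2 : F) = 0 := by linear_combination him
  have h4 : (4 : F) = 0 := by linear_combination 2 * h2
  rw [hre, h4]
  ring

theorem K_dec (hD : a ^ 2 - 4 * b ≠ 0) (p r : E) :
    ∃ u₁ u₂ : E, u₁ + ω * u₂ = p ∧ star u₁ + ω * star u₂ = r := by
  have hδ := K_delta_ne a b hD
  set d : E := ((ω : E) - star (ω : E))⁻¹ with hd
  have hδd : ((ω : E) - star (ω : E)) * d = 1 := mul_inv_cancel₀ hδ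
  have hsd : star d = -d := by
    rw [hd, star_inv₀, star_sub, star_star, ← neg_sub, inv_neg]
  refine ⟨p - ω * ((p - star r) * d), (p - star r) * d, by ring, ?_⟩
  simp only [star_sub, star_mul', star_star, hsd]
  linear_combination (-(star p - r)) * hδd

/-- [K] -/
theorem ker_scalar (hD : a ^ 2 - 4 * b ≠ 0) (g : W)
    (h : ∀ M, InV a b M → g * M * gᵀ = M) : g = 1 ∨ g = -1 := by
  apply rho6_ker_scalar g
  intro x
  obtain ⟨u₁, u₂, hu, hu'⟩ := K_dec a b hD (x (.inl 0)) (x (.inr 0))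
  obtain ⟨v₁, v₂, hv, hv'⟩ := K_dec a b hD (x (.inl 1)) (x (.inr 1))
  obtain ⟨w₁, w₂, hw, hw'⟩ := K_dec a b hD (x (.inl 2)) (x (.inr 2))
  have e1 : mk a b u₁ v₁ w₁ = e6 (Sum.elim ![u₁, v₁, w₁] ![star u₁, star v₁, star w₁]) := rfl
  have e2 : mk a b u₂ v₂ w₂ = e6 (Sum.elim ![u₂, v₂, w₂] ![star u₂, star v₂, star w₂]) := rfl
  have hx : x = Sum.elim ![u₁, v₁, w₁] ![star u₁, star v₁, star w₁] +
      (ω : E) • Sum.elim ![u₂, v₂, w₂] ![star u₂, star v₂, star w₂] := by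
    funext i
    rcases i with i | i <;> fin_cases i
    · exact hu.symm
    · exact hv.symm
    · exact hw.symm
    · exact hu'.symm
    · exact hv'.symm
    · exact hw'.symm
  have hA := h _ ⟨u₁, v₁, w₁, rfl⟩
  have hB := h _ ⟨u₂, v₂, w₂, rfl⟩
  rw [hx, map_add, map_smul, ← e1, ← e2, mul_add, add_mul, Matrix.mul_smul, Matrix.smul_mul, hA, hB]

end Cfsg.Agent.Lib.Helper60.O6M
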