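import Mathlib
import Cfsg.Agent.Lib.Helper60.O6M.Defs
import Cfsg.Agent.Lib.Helper60.O6M.FR
import Cfsg.Agent.Lib.Helper9.AschU.Base

/-! farm O6M (helper60), piece N. -/

set_option autoImplicit false

namespace Cfsg.Agent.Lib.Helper60.O6M

open Matrix QuadraticAlgebra

variable {F : Type*} [Field F] (a b : F)

local notation "E" => QuadraticAlgebra F (-b) a

variable [hfact : Fact (∀ r : F, r ^ 2 ≠ -b + a * r)]
include hfact

/-- [N] -/
theorem exists_zeta [Fintype F] [Fintype E]
    (hE : Fintype.card E = Fintype.card F ^ 2) : ∃ ζ : E, ζ * star ζ = -1 := by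
  obtain ⟨l, hl⟩ := Cfsg.Agent.Lib.Helper9.AschU.norm_surjective hE (-1 : E) (by
    rw [frob_eq_star, star_neg, star_one])
  refine ⟨l, ?_⟩
  rw [← frob_eq_star, ← pow_succ', hl]

end Cfsg.Agent.Lib.Helper60.O6M
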