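import Mathlib
import Cfsg.Agent.Lib.Helper60.O6M.Defs
import Cfsg.Agent.Lib.Helper60.O6M.FR
import Cfsg.Agent.Lib.Helper5.SUOrder

/-! farm O6M (helper60), piece U. -/

set_option autoImplicit false

namespace Cfsg.Agent.Lib.Helper60.O6M

open Matrix QuadraticAlgebra

variable {F : Type*} [Field F] (a b : F)

local notation "E" => QuadraticAlgebra F (-b) a
local notation "W" => Matrix (Fin 4) (Fin 4) (QuadraticAlgebra F (-b) a)

variable [hfact : Fact (∀ r : F, r ^ 2 ≠ -b + a * r)]
include hfact

/-- [U] -/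
theorem su_unitary [Fintype F] [Fintype E]
    (hE : Fintype.card E = Fintype.card F ^ 2) (g : Cfsg.SU 4 E (Fintype.card F)) :
    ((g : Matrix.SpecialLinearGroup (Fin 4) E) : W)ᵀ * ((g : Matrix.SpecialLinearGroup (Fin 4) E) : W).map star = 1 := by
  have h1 := (Cfsg.Agent.Lib.Helper5.preserves_hermForm_iff hE
    ((g : Matrix.SpecialLinearGroup (Fin 4) E) : W)).1 g.2
  have h2 : (fun x : E => x ^ Fintype.card F) = star := by
    funext x
    exact frob_eq_star a b x
  rw [h2] at h1
  exact h1

end Cfsg.Agent.Lib.Helper60.O6M
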