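import Mathlib
import Cfsg.Agent.Lib.Helper60.O6M.Defs

/-! O6M piece X1: `pf4_mk`, `exists_mkL`, `mk_injective`. -/

set_option autoImplicit false

namespace Cfsg.Agent.Lib.Helper60.O6M

open Cfsg.Agent.Lib.Helper14 Cfsg.Agent.Lib.Helper44 Matrix QuadraticAlgebra

variable {F : Type*} [Field F] (a b : F)

local notation "E" => QuadraticAlgebra F (-b) a
local notation "W" => Matrix (Fin 4) (Fin 4) (QuadraticAlgebra F (-b) a)

variable [hfact : Fact (∀ r : F, r ^ 2 ≠ -b + a * r)]
include hfact

theorem pf4_mk (u v w : E) : pf4 (mk a b u v w) = u * star u + v * star v + w * star w := by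
  simp [pf4, mk]
  try ring

theorem exists_mkL : ∃ L : (E × E × E) →ₗ[F] W, ∀ p, L p = mk a b p.1 p.2.1 p.2.2 := by
  refine ⟨{ toFun := fun p => mk a b p.1 p.2.1 p.2.2, map_add' := ?_, map_smul' := ?_ }, fun p => rfl⟩
  · intro p r
    refine Matrix.ext fun i j => ?_
    fin_cases i <;> fin_cases j <;> simp [mk] <;> try ring
  · intro c p
    have hs : ∀ u : E, star (c • u) = c • star u := by
      intro u
      ext <;> simp [mul_add] <;> try ring
    refine Matrix.ext fun i j => ?_
    fin_cases i <;> fin_cases j <;> simp [mk, hs]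

theorem mk_injective (u v w u' v' w' : E) (h : mk a b u v w = mk a b u' v' w') :
    u = u' ∧ v = v' ∧ w = w' := by
  refine ⟨?_, ?_, ?_⟩
  · simpa [mk] using congrFun (congrFun h 0) 1
  · simpa [mk] using congrFun (congrFun h 0) 2
  · simpa [mk] using congrFun (congrFun h 0) 3

end Cfsg.Agent.Lib.Helper60.O6M
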