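import Mathlib
import Cfsg.Agent.Lib.Helper60.O6M.Defs
import Cfsg.Agent.Lib.Helper44.StdForms

set_option autoImplicit false

namespace Cfsg.Agent.Lib.Helper60.O6M

open Cfsg.Agent.Lib.Helper14 Cfsg.Agent.Lib.Helper44 Matrix QuadraticAlgebra

variable {F : Type*} [Field F] (a b : F)

local notation "E" => QuadraticAlgebra F (-b) a

variable [hfact : Fact (∀ r : F, r ^ 2 ≠ -b + a * r)]
include hfact

/-- [X2a] THE EXPLICIT ISOMETRY. -/
theorem exists_phi (hD : a ^ 2 - 4 * b ≠ 0) (ζ : E)
    (hζ : ζ * star ζ = -1) :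
    ∃ φ : ((Fin 2 ⊕ Fin 2) ⊕ Fin 2 → F) →ₗ[F] (E × E × E), ∀ x,
      (φ x).1 * star (φ x).1 + (φ x).2.1 * star (φ x).2.1 + (φ x).2.2 * star (φ x).2.2
        = algebraMap F E (minusQF 2 F a b x) := by
  obtain ⟨w, hw⟩ : ∃ w : E, w = QuadraticAlgebra.omega := ⟨_, rfl⟩
  have hsC : ∀ r : F, star (algebraMap F E r) = algebraMap F E r := by
    intro r
    ext <;> simp
  have hω1 : w + star w = algebraMap F E a := by
    rw [hw]; ext <;> simp
  have hω2 : w * star w = algebraMap F E b := by
    rw [hw]; ext <;> simp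
  have hδ : w - star w ≠ 0 := by
    intro h0
    have h1 := congrArg QuadraticAlgebra.re h0
    have h2 := congrArg QuadraticAlgebra.im h0
    rw [hw] at h1 h2
    simp at h1 h2
    apply hD
    have h3 : (2 : F) = 0 := by linear_combination h2
    rw [h1]
    linear_combination (-2 * b) * h3
  obtain ⟨d, hd⟩ : ∃ d : E, (w - star w) * d = 1 := ⟨(w - star w)⁻¹, mul_inv_cancel₀ hδ⟩
  have hds : (star w - w) * star d = 1 := by
    have := congrArg star hd
    simpa [star_mul'] using this
  have hd' : star d = -d := by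
    linear_combination (-star d) * hd + (-d) * hds
  refine ⟨
    { toFun := fun x =>
        (((algebraMap F E (x (.inl (.inl 1))) - algebraMap F E (x (.inl (.inl 0))) * w) * d
          - w * d * (algebraMap F E (x (.inl (.inr 0))) + algebraMap F E (x (.inl (.inr 1))) * w)),
        ζ * (((algebraMap F E (x (.inl (.inl 1))) - algebraMap F E (x (.inl (.inl 0))) * w) * d
          - w * d * (algebraMap F E (x (.inl (.inr 0))) + algebraMap F E (x (.inl (.inr 1))) * w))
          + (algebraMap F E (x (.inl (.inr 0))) + algebraMap F E (x (.inl (.inr 1))) * w)),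
        algebraMap F E (x (.inr 0)) + algebraMap F E (x (.inr 1)) * w)
      map_add' := ?_
      map_smul' := ?_ }, ?_⟩
  · intro x y
    simp only [Pi.add_apply, map_add, Prod.mk_add_mk]
    refine Prod.ext ?_ (Prod.ext ?_ ?_) <;> simp only <;> ring
  · intro c x
    simp only [Pi.smul_apply, smul_eq_mul, map_mul, RingHom.id_apply, Prod.smul_mk]
    refine Prod.ext ?_ (Prod.ext ?_ ?_) <;> simp only [Algebra.smul_def] <;> ring
  · intro x
    have hq := minusQF_apply 2 F a b x
    simp only [LinearMap.coe_mk, AddHom.coe_mk]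
    rw [hq]
    simp only [Fin.sum_univ_two, map_add, map_mul, map_pow,
      star_add, star_sub, star_mul', hsC, hd']
    generalize algebraMap F E (x (.inl (.inl 0))) = X1
    generalize algebraMap F E (x (.inl (.inl 1))) = X2
    generalize algebraMap F E (x (.inl (.inr 0))) = Y1
    generalize algebraMap F E (x (.inl (.inr 1))) = Y2
    generalize algebraMap F E (x (.inr 0)) = Z1
    generalize algebraMap F E (x (.inr 1)) = Z2
    linear_combination
      ((((X2 - X1 * w) * d - w * d * (Y1 + Y2 * w)) + (Y1 + Y2 * w)) *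
        (((X2 - X1 * star w) * (-d) - star w * (-d) * (Y1 + Y2 * star w)) + (Y1 + Y2 * star w))) * hζ
      + ((Y1 + Y2 * w) * (Y1 + Y2 * star w) + X1 * Y1 + X2 * Y2) * hd
      + Z1 * Z2 * hω1 + Z2 ^ 2 * hω2

end Cfsg.Agent.Lib.Helper60.O6M
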