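import Mathlib
import Cfsg.Agent.Lib.Helper60.O6M.Defs
import Cfsg.Agent.Lib.Helper44.StdForms

set_option autoImplicit false

namespace Cfsg.Agent.Lib.Helper60.O6M

open Cfsg.Agent.Lib.Helper14 Cfsg.Agent.Lib.Helper44 Matrix QuadraticAlgebra QuadraticMap

variable {F : Type*} [Field F] (a b : F)

local notation "E" => QuadraticAlgebra F (-b) a

variable [hfact : Fact (∀ r : F, r ^ 2 ≠ -b + a * r)]
include hfact

/-- [X2b] ANY such `φ` is bijective. -/
theorem phi_bijective
    (hab : ∀ z₁ z₂ : F, z₁ ^ 2 + a * z₁ * z₂ + b * z₂ ^ 2 = 0 → z₁ = 0 ∧ z₂ = 0)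
    (φ : ((Fin 2 ⊕ Fin 2) ⊕ Fin 2 → F) →ₗ[F] (E × E × E))
    (hφ : ∀ x, (φ x).1 * star (φ x).1 + (φ x).2.1 * star (φ x).2.1 + (φ x).2.2 * star (φ x).2.2
        = algebraMap F E (minusQF 2 F a b x)) : Function.Bijective φ := by
  have hinj : Function.Injective φ := by
    rw [← LinearMap.ker_eq_bot, LinearMap.ker_eq_bot']
    intro x hx
    have hQ : ∀ y, minusQF 2 F a b (x + y) = minusQF 2 F a b y := by
      intro y
      apply QuadraticAlgebra.algebraMap_injective (a := -b) (b := a)
      rw [← hφ, ← hφ, map_add, hx, zero_add]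
    have hQx : minusQF 2 F a b x = 0 := by
      have := hQ 0
      simpa using this
    have hpol : ∀ y, polar (minusQF 2 F a b) y x = 0 := by
      intro y
      rw [polar_comm, polar, hQ, hQx]
      ring
    have h1 : ∀ j : Fin 2, x (.inl (.inr j)) = 0 := by
      intro j
      rw [← minusQF_polar_single_inl 2 F a b j x]
      exact hpol _
    have h2 : ∀ j : Fin 2, x (.inl (.inl j)) = 0 := by
      intro j
      rw [← minusQF_polar_single_inr 2 F a b j x]
      exact hpol _
    rw [minusQF_apply] at hQx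
    simp only [h1, h2, mul_zero, Finset.sum_const_zero, zero_add] at hQx
    obtain ⟨z1, z2⟩ := hab _ _ hQx
    ext k
    rcases k with (j | j) | j
    · exact h2 j
    · exact h1 j
    · fin_cases j
      · exact z1
      · exact z2
  refine ⟨hinj, ?_⟩
  have hfr : Module.finrank F ((Fin 2 ⊕ Fin 2) ⊕ Fin 2 → F) = Module.finrank F (E × E × E) := by
    rw [Module.finrank_prod, Module.finrank_prod, QuadraticAlgebra.finrank_eq_two]
    simp
  exact (LinearMap.injective_iff_surjective_of_finrank_eq_finrank hfr).1 hinj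

end Cfsg.Agent.Lib.Helper60.O6M
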