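import Mathlib
import Cfsg.Agent.Lib.Helper60.O6M.C
import Cfsg.Agent.Lib.Helper60.O6M.FR
import Cfsg.Agent.Lib.Helper60.O6M.H1
import Cfsg.Agent.Lib.Helper60.O6M.H2
import Cfsg.Agent.Lib.Helper60.O6M.H3
import Cfsg.Agent.Lib.Helper60.O6M.K
import Cfsg.Agent.Lib.Helper60.O6M.N
import Cfsg.Agent.Lib.Helper60.O6M.U
import Cfsg.Agent.Lib.Helper60.O6M.X1
import Cfsg.Agent.Lib.Helper60.O6M.X2a
import Cfsg.Agent.Lib.Helper60.O6M.X2b
import Cfsg.Agent.Lib.Helper14.Omega4Minus
import Cfsg.Agent.Lib.Helper14.ExcIso2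
import Cfsg.Agent.Lib.Helper5.POmegaOrder
import Cfsg.Agent.Lib.Helper5.SUSimple
import Cfsg.Agent.Lib.Helper54.PSUCongr
import Cfsg.Agent.S0288

/-! `PΩ₆⁻(q) ≅ PSU₄(q)`: assembly. -/

set_option autoImplicit false

namespace Cfsg.Agent.Lib.Helper60.O6M

open Cfsg.Agent.Lib.Helper14 Cfsg.Agent.Lib.Helper44 Matrix QuadraticAlgebra

variable {F : Type*} [Field F] (a b : F)

local notation "E" => QuadraticAlgebra F (-b) a
local notation "W" => Matrix (Fin 4) (Fin 4) (QuadraticAlgebra F (-b) a)

variable [hfact : Fact (∀ r : F, r ^ 2 ≠ -b + a * r)]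

/-- the parametrisation of the real form -/
theorem exists_e [Fintype F] [Fintype E] (hE : Fintype.card E = Fintype.card F ^ 2)
    (hab : ∀ z₁ z₂ : F, z₁ ^ 2 + a * z₁ * z₂ + b * z₂ ^ 2 = 0 → z₁ = 0 ∧ z₂ = 0) :
    ∃ e : ((Fin 2 ⊕ Fin 2) ⊕ Fin 2 → F) →ₗ[F] W, Function.Injective e ∧ (∀ v, InV a b (e v)) ∧
      (∀ M, InV a b M → ∃ v, e v = M) ∧
      ∀ v, pf4 (e v) = algebraMap F E (minusQF 2 F a b v) := by
  have hD := disc_ne_zero_of_anisotropic F hab
  obtain ⟨ζ, hζ⟩ := exists_zeta a b hE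
  obtain ⟨φ, hφ⟩ := exists_phi a b hD ζ hζ
  obtain ⟨hinj, hsurj⟩ := phi_bijective a b hab φ hφ
  obtain ⟨L, hL⟩ := exists_mkL a b
  refine ⟨L.comp φ, ?_, ?_, ?_, ?_⟩
  · intro x y hxy
    apply hinj
    have h1 : mk a b (φ x).1 (φ x).2.1 (φ x).2.2 = mk a b (φ y).1 (φ y).2.1 (φ y).2.2 := by
      rw [← hL, ← hL]; exact hxy
    obtain ⟨h2, h3, h4⟩ := mk_injective a b _ _ _ _ _ _ h1
    exact Prod.ext h2 (Prod.ext h3 h4)
  · intro v
    exact ⟨_, _, _, hL (φ v)⟩
  · rintro M ⟨u, v, w, rfl⟩
    obtain ⟨x, hx⟩ := hsurj (u, v, w)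
    refine ⟨x, ?_⟩
    show L (φ x) = _
    rw [hx, hL]
  · intro v
    show pf4 (L (φ v)) = _
    rw [hL, pf4_mk, hφ]

local notation "S" => Cfsg.SU 4 (QuadraticAlgebra F (-b) a) (Fintype.card F)

/-- the action of `SU₄` on `4 × 4` matrices by congruence -/
noncomputable def actT [Fintype F] : S →* (W ≃ₗ[F] W) :=
  (congAct F (R := W) Matrix.transpose Matrix.transpose_one Matrix.transpose_mul).comp
    (Matrix.SpecialLinearGroup.toGL.comp (Cfsg.SU 4 E (Fintype.card F)).subtype)

theorem actT_apply [Fintype F] (g : S) (M : W) :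
    actT a b g M = ((g : Matrix.SpecialLinearGroup (Fin 4) E) : W) * M *
      ((g : Matrix.SpecialLinearGroup (Fin 4) E) : W)ᵀ := rfl

/-- the isomorphism over the model field -/
theorem main_model [Fintype F] [Fintype E] (hE : Fintype.card E = Fintype.card F ^ 2)
    (hab : ∀ z₁ z₂ : F, z₁ ^ 2 + a * z₁ * z₂ + b * z₂ ^ 2 = 0 → z₁ = 0 ∧ z₂ = 0) :
    Nonempty (Cfsg.POmega F (Cfsg.quadFormMinus 2 F a b) ≃* Cfsg.PSU 4 E (Fintype.card F)) := by
  classical
  have : Fact (Even (Fintype.card (Fin 4))) := ⟨by decide⟩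
  set q := Fintype.card F with hq
  have hD := disc_ne_zero_of_anisotropic F hab
  obtain ⟨e, hinj, heV, hsurj, hpf⟩ := exists_e a b hE hab
  have hT : ∀ (g : S) v, ∃ v', e v' = actT a b g (e v) := by
    intro g v
    rw [actT_apply]
    exact hsurj _ (inV_cong a b _ (g : Matrix.SpecialLinearGroup (Fin 4) E).det_coe
      (su_unitary a b hE g) _ (heV v))
  have hN : ∀ v, (pf4 (e v)).re = minusQF 2 F a b v := by
    intro v
    rw [hpf]
    simp
  have hNT : ∀ (g : S) v, (pf4 (actT a b g (e v))).re = (pf4 (e v)).re := by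
    intro g v
    rw [actT_apply]
    obtain ⟨u, v', w, huvw⟩ := heV v
    obtain ⟨x, hx⟩ := mk_eq_e6 a b u v' w
    rw [huvw, hx, pf4_cong, (g : Matrix.SpecialLinearGroup (Fin 4) E).det_coe, one_mul]
  let ρ : S →* OQ (minusQF 2 F a b) :=
    liftOQ (minusQF 2 F a b) e hinj (actT a b) hT (fun M => (pf4 M).re) hN hNT
  have hρ1 : ∀ g : S, ρ g = 1 ↔ ∀ v, actT a b g (e v) = e v :=
    fun g => liftOQ_eq_one_iff _ _ _ _ _ _ _ _ g
  have hker : ∀ g : S, g ∈ ρ.ker ↔
      (((g : Matrix.SpecialLinearGroup (Fin 4) E) : W) = 1 ∨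
        ((g : Matrix.SpecialLinearGroup (Fin 4) E) : W) = -1) := by
    intro g
    rw [MonoidHom.mem_ker, hρ1]
    constructor
    · intro h
      apply ker_scalar a b hD
      intro M hM
      obtain ⟨v, rfl⟩ := hsurj M hM
      exact h v
    · rintro (h | h) v <;> rw [actT_apply, h] <;> simp
  have hperf : commutator S = ⊤ :=
    Cfsg.Agent.Lib.Helper5.su_commutator_eq_top hE (by norm_num) (by norm_num)
  have hP : Group.IsPerfect S := ⟨hperf⟩
  have hρc : ∀ g, ρ g ∈ commutator (OQ (minusQF 2 F a b)) :=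
    fun g => map_mem_commutator _ (by rw [hperf]; exact Subgroup.mem_top g)
  have hkerle : ρ.ker ≤ (QuotientGroup.mk' (Subgroup.center S)).ker := by
    rw [QuotientGroup.ker_mk']
    intro g hg
    rw [hker] at hg
    rw [Subgroup.mem_center_iff]
    intro k
    apply Subtype.ext
    apply Matrix.SpecialLinearGroup.ext
    intro i j
    show (((k : Matrix.SpecialLinearGroup (Fin 4) E) * (g : Matrix.SpecialLinearGroup (Fin 4) E) :
      Matrix.SpecialLinearGroup (Fin 4) E) : W) i j =
      (((g : Matrix.SpecialLinearGroup (Fin 4) E) * (k : Matrix.SpecialLinearGroup (Fin 4) E) :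
      Matrix.SpecialLinearGroup (Fin 4) E) : W) i j
    rw [Matrix.SpecialLinearGroup.coe_mul, Matrix.SpecialLinearGroup.coe_mul]
    rcases hg with h | h <;> rw [h] <;> simp
  have hO := Cfsg.Agent.S0288.result (F := F) rfl 3 (by norm_num) a b hab
  simp only [Nat.add_one_sub_one, Finset.prod_range_succ, Finset.prod_range_zero, one_mul,
    zero_add, mul_one] at hO
  rw [← hq] at hO
  have hSU := card_SU4 (K := E) (q := q) hE
  have hidx := Subgroup.card_mul_index (Cfsg.Omega F ⇑(minusQF 2 F a b))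
  have hcard : Nat.card S = Nat.card ρ.ker * Nat.card (Cfsg.Omega F ⇑(minusQF 2 F a b)) := by
    rw [hSU]
    rcases Nat.even_or_odd q with hev | hodd
    · have hchar : CharP F 2 := by
        have h := FiniteField.even_card_iff_char_two.mpr (Nat.even_iff.mp hev)
        exact h ▸ ringChar.charP F
      have h20 : (2 : F) = 0 := CharP.cast_eq_zero F 2
      have e3 := Cfsg.Agent.Lib.Helper5.index_Omega_even (minusQF 2 F a b)
        (minusQF_nondeg 2 F hab) (by simp)
      rw [e3] at hidx
      rw [minusQF_coe] at hidx ⊢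
      rw [hO] at hidx
      have hk : Nat.card ρ.ker = 1 := by
        apply card_pm_one_eq
        intro g hg
        rw [hker] at hg
        apply Subtype.ext
        apply Matrix.SpecialLinearGroup.ext
        intro i j
        rcases hg with h | h
        · rw [h]; rfl
        · rw [h]
          have hneg : (-1 : E) = 1 := by
            ext
            · show (-1 : F) = 1
              linear_combination (-1 : F) * h20
            · show (-0 : F) = 0
              simp
          by_cases hij : i = j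
          · subst hij
            simp [hneg]
          · simp [hij]
      rw [hk, one_mul]
      have : Nat.card (Cfsg.Omega F (Cfsg.quadFormMinus 2 F a b)) * 2 =
          (q ^ 6 * (q ^ 2 - 1) * (q ^ 3 + 1) * (q ^ 4 - 1)) * 2 := by
        rw [hidx]; ring
      omega
    · have h2 : (2 : F) ≠ 0 := Cfsg.Agent.Lib.Helper44.two_ne_zero_of_odd_card hodd
      have e3 := Cfsg.Agent.Lib.Helper5.index_Omega_odd h2 (minusQF 2 F a b)
        (minusQF_nondeg 2 F hab) (by simp)
      rw [e3] at hidx
      rw [minusQF_coe] at hidx ⊢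
      rw [hO] at hidx
      have hm1 : (-1 : Matrix.SpecialLinearGroup (Fin 4) E) ∈ Cfsg.SU 4 E q := by
        intro u v
        show Cfsg.hermForm 4 E q (((-1 : Matrix.SpecialLinearGroup (Fin 4) E) : W) *ᵥ u)
          (((-1 : Matrix.SpecialLinearGroup (Fin 4) E) : W) *ᵥ v) = _
        have hq1 : Odd q := hodd
        simp [Cfsg.hermForm, Matrix.neg_mulVec, hq1.neg_pow]
      have hk : Nat.card ρ.ker = 2 := by
        apply card_pm_one_ne _ (⟨-1, hm1⟩ : S)
        · intro h
          have h' := congrArg (fun g : S =>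
            (((g : Matrix.SpecialLinearGroup (Fin 4) E) : W) 0 0).re) h
          simp at h'
          change (-1 : F) = 1 at h'
          apply h2
          linear_combination -h'
        · intro g
          rw [hker]
          constructor
          · rintro (h | h)
            · left; exact Subtype.ext (Subtype.ext h)
            · right; exact Subtype.ext (Subtype.ext (by rw [h]; simp))
          · rintro (h | h)
            · left; rw [h]; simp
            · right; rw [h]; simp
      rw [hk]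
      have : Nat.card (Cfsg.Omega F (Cfsg.quadFormMinus 2 F a b)) * 4 =
          (q ^ 6 * (q ^ 2 - 1) * (q ^ 3 + 1) * (q ^ 4 - 1)) * 2 := by
        rw [hidx]; ring
      omega
  have := exc_iso (minusQF 2 F a b) ρ hρc hcard
    (QuotientGroup.mk' (Subgroup.center S)) (QuotientGroup.mk'_surjective _)
    (Group.IsPerfect.center_quotient_center_eq_bot S) hkerle (by rw [QuotientGroup.ker_mk'])
  rwa [minusQF_coe] at this

end Cfsg.Agent.Lib.Helper60.O6M
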